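import Mathlib
import Cfsg.Agent.Lib.Helper56.TC
import Cfsg.Agent.Lib.Helper56.MYT1.D
set_option autoImplicit false
set_option maxRecDepth 1000000

namespace Cfsg.Agent.Lib.Helper56.MYT1

open Cfsg.Agent.Lib.Helper56.TC Cfsg.Agent.Lib.Helper56.TC.Tabs

theorem cN_0 : allRange (fun x => forceN T.chkName x) 0 493 = true := by decide +kernel
theorem cN_493 : allRange (fun x => forceN T.chkName x) 493 505 = true := by decide +kernel
theorem cN_998 : allRange (fun x => forceN T.chkName x) 998 604 = true := by decide +kernel
theorem cN_1602 : allRange (fun x => forceN T.chkName x) 1602 627 = true := by decide +kernel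
theorem cN_2229 : allRange (fun x => forceN T.chkName x) 2229 489 = true := by decide +kernel
theorem cV_0 : allRange (fun x => forceN T.chkV x) 0 361 = true := by decide +kernel
theorem cV_361 : allRange (fun x => forceN T.chkV x) 361 361 = true := by decide +kernel
theorem cV_722 : allRange (fun x => forceN T.chkV x) 722 358 = true := by decide +kernel

end Cfsg.Agent.Lib.Helper56.MYT1
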